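import Mathlib

set_option autoImplicit false

namespace Cfsg.Agent.Lib.Helper2

theorem index_dvd_card_of_stabilizer_eq {N X : Type*} [Group N] [Finite N] [MulAction N X] [Finite X]
    (S : Subgroup N) (h : ∀ x : X, MulAction.stabilizer N x = S) : S.index ∣ Nat.card X := by
  classical
  have e := MulAction.selfEquivSigmaOrbitsQuotientStabilizer N X
  rw [Nat.card_congr e]
  have : Finite (MulAction.orbitRel.Quotient N X) := Quotient.finite _
  have : Fintype (MulAction.orbitRel.Quotient N X) := Fintype.ofFinite _
  rw [Nat.card_sigma]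
  apply Finset.dvd_sum
  intro ω _
  rw [h]
  exact dvd_of_eq rfl

end Cfsg.Agent.Lib.Helper2
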