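import Mathlib
import Cfsg.Prelude.Def_Characters
import Cfsg.Agent.Lib.Helper2.CharClifford
import Cfsg.Agent.Lib.Helper2.CharMore
import Cfsg.Agent.Lib.Helper2.CharLinear
import Cfsg.Agent.Lib.Helper2.CharOrtho
import Cfsg.Agent.Lib.Helper2.CharIntegral

set_option autoImplicit false

namespace Cfsg.Agent.Lib.Helper2

open Representation Module

open scoped ComplexConjugate

section taketa

variable {G : Type*} [Group G] [Fintype G]

/-- an element on which all irreducible characters take their degree is the identity -/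
theorem eq_one_of_forall_irr_eq {g : G}
    (h : ∀ χ : G → ℂ, Cfsg.IsIrrCharacter G χ → χ g = χ 1) : g = 1 := by
  classical
  have := Fintype.ofFinite (Cfsg.IrrCharacter G)
  by_contra hg
  have h1 := column_orthogonality g (1 : G)
  have h2 := column_orthogonality (1 : G) (1 : G)
  rw [colFun_of_not_isConj (fun hc => hg (isConj_one_left.mp hc))] at h1
  rw [colFun_of_isConj (IsConj.refl 1)] at h2
  have h3 : ∑ χ : Cfsg.IrrCharacter G, (χ : G → ℂ) g * conj ((χ : G → ℂ) 1)
      = ∑ χ : Cfsg.IrrCharacter G, (χ : G → ℂ) 1 * conj ((χ : G → ℂ) 1) :=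
    Finset.sum_congr rfl (fun χ _ => by rw [h χ χ.2])
  rw [h1, h2] at h3
  exact card_ne_zero_complex _ h3.symm

/-- the kernel of a permutation character lies in the subgroup -/
theorem mem_of_perm_char_eq (H : Subgroup G) (g : G)
    (h : Cfsg.indFun H (fun _ => (1 : ℂ)) g = Cfsg.indFun H (fun _ => (1 : ℂ)) 1) : g ∈ H := by
  classical
  rw [indFun_apply, indFun_apply] at h
  have hne : (Nat.card H : ℂ)⁻¹ ≠ 0 := inv_ne_zero (card_ne_zero_complex H)
  have h2 := mul_left_cancel₀ hne h
  have e1 : ∀ x : G, Cfsg.extendByZero H (fun _ => (1 : ℂ)) (x⁻¹ * 1 * x) = 1 := by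
    intro x
    rw [extendByZero_of_mem H _ (by simp : x⁻¹ * 1 * x ∈ H)]
  have e2 : ∀ x : G, Cfsg.extendByZero H (fun _ => (1 : ℂ)) (x⁻¹ * g * x)
      = if x⁻¹ * g * x ∈ H then 1 else 0 := by
    intro x
    split_ifs with hx
    · rw [extendByZero_of_mem H _ hx]
    · rw [extendByZero_of_not_mem H _ hx]
  simp only [e1, e2] at h2
  rw [Finset.sum_boole, Finset.sum_const, Finset.card_univ, nsmul_eq_mul, mul_one] at h2
  have h3 : (Finset.univ.filter (fun x : G => x⁻¹ * g * x ∈ H)).card = Fintype.card G := by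
    exact_mod_cast h2
  have h4 := (Finset.card_eq_iff_eq_univ _).mp h3
  have h5 : (1 : G) ∈ Finset.univ.filter (fun x : G => x⁻¹ * g * x ∈ H) := by
    rw [h4]
    exact Finset.mem_univ _
  simpa using (Finset.mem_filter.mp h5).2

/-- Taketa: `M`-groups are solvable -/
theorem taketa
    (hM : ∀ χ : G → ℂ, Cfsg.IsIrrCharacter G χ →
      ∃ (H : Subgroup G) (lam : H →* ℂˣ), χ = Cfsg.indFun H (fun h => (lam h : ℂ))) :
    Group.IsSolvable G := by
  classical
  have := Fintype.ofFinite (Cfsg.IrrCharacter G)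
  have key : ∀ n : ℕ, ∀ χ : G → ℂ, Cfsg.IsIrrCharacter G χ → ∀ d : ℕ, χ 1 = d → d ≤ n →
      ∀ g ∈ derivedSeries G n, χ g = χ 1 := by
    intro n
    induction n with
    | zero =>
      intro χ hχ d hd hle g _
      obtain ⟨m, hm, hm'⟩ := irr_apply_one hχ
      rw [hd] at hm'
      have : d = m := by exact_mod_cast hm'
      omega
    | succ n ih =>
      intro χ hχ d hd hle g hg
      have hanti : derivedSeries G (n + 1) ≤ derivedSeries G n :=
        derivedSeries_antitone G (Nat.le_succ n)
      by_cases hdn : d ≤ n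
      · exact ih χ hχ d hd hdn g (hanti hg)
      have hdn' : d = n + 1 := by omega
      by_cases hd1 : d = 1
      · have h1 : χ 1 = 1 := by
          rw [hd, hd1]
          simp
        obtain ⟨lam, hlam⟩ := hom_of_irr_deg_one hχ h1
        have hgc : g ∈ commutator G := by
          have h2 : derivedSeries G (n + 1) ≤ derivedSeries G 1 :=
            derivedSeries_antitone G (by omega)
          have h3 := h2 hg
          rw [derivedSeries_one] at h3
          exact h3
        have h4 := Abelianization.commutator_subset_ker lam hgc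
        rw [hlam]
        simp [MonoidHom.mem_ker.mp h4]
      obtain ⟨H, lam, hχH⟩ := hM χ hχ
      have hidx : H.index = n + 1 := by
        have h2 := indFun_apply_one H (fun h => (lam h : ℂ))
        rw [← hχH, hd, map_one, Units.val_one, mul_one] at h2
        have h3 : d = H.index := by exact_mod_cast h2
        omega
      have h1H : Cfsg.IsIrrCharacter H (fun _ => (1 : ℂ)) := isIrrCharacter_one
      have h1G : Cfsg.IsIrrCharacter G (fun _ => (1 : ℂ)) := isIrrCharacter_one
      have hπc : Cfsg.IsCharacter G (Cfsg.indFun H (fun _ => (1 : ℂ))) :=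
        indFun_isCharacter H (isCharacter_of_isIrrCharacter h1H)
      have hπ1 : Cfsg.classInner (Cfsg.indFun H (fun _ => (1 : ℂ))) (fun _ => (1 : ℂ)) = 1 := by
        rw [frobenius_reciprocity H _ _ (isClassFunction_of_isIrrCharacter h1G)]
        exact classInner_irr_self h1H
      have hπ'c : Cfsg.IsCharacter G (Cfsg.indFun H (fun _ => (1 : ℂ)) - fun _ => (1 : ℂ)) :=
        IsCharacter.sub_irr hπc h1G (by rw [hπ1]; exact one_ne_zero)
      have hπdeg : Cfsg.indFun H (fun _ => (1 : ℂ)) 1 = ((n + 1 : ℕ) : ℂ) := by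
        rw [indFun_apply_one, hidx, mul_one]
      have hDnH : derivedSeries G n ≤ H := by
        intro y hy
        apply mem_of_perm_char_eq H y
        have hexp := class_fun_expand (Cfsg.indFun H (fun _ => (1 : ℂ)))
          (isClassFunction_of_isCharacter hπc)
        rw [hexp, Finset.sum_apply, Finset.sum_apply]
        apply Finset.sum_congr rfl
        intro ψ _
        simp only [Pi.smul_apply, smul_eq_mul]
        by_cases h0 : Cfsg.classInner (Cfsg.indFun H (fun _ => (1 : ℂ))) (ψ : G → ℂ) = 0
        · rw [h0, zero_mul, zero_mul]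
        congr 1
        by_cases hψ1 : (ψ : G → ℂ) = fun _ => (1 : ℂ)
        · rw [hψ1]
        have hne : Cfsg.classInner (Cfsg.indFun H (fun _ => (1 : ℂ)) - fun _ => (1 : ℂ))
            (ψ : G → ℂ) ≠ 0 := by
          rw [classInner_sub_left, classInner_irr_ne h1G ψ.2 (fun e => hψ1 e.symm), sub_zero]
          exact h0
        obtain ⟨N, e, hN, he, hle'⟩ := irr_deg_le_of_inner_ne_zero hπ'c ψ.2 hne
        have hN' : N = n := by
          have h5 : (Cfsg.indFun H (fun _ => (1 : ℂ)) - (fun _ => (1 : ℂ) : G → ℂ)) 1 = (n : ℂ) := by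
            rw [Pi.sub_apply, hπdeg]
            push_cast
            ring
          rw [h5] at hN
          exact_mod_cast hN.symm
        exact ih ψ ψ.2 e he (by omega) y hy
      have hgH' : ∀ x : G, x⁻¹ * g * x ∈ ⁅H, H⁆ := by
        intro x
        have hnorm : (derivedSeries G (n + 1)).Normal := derivedSeries_normal G (n + 1)
        have h1 := hnorm.conj_mem g hg x⁻¹
        rw [inv_inv, derivedSeries_succ] at h1
        exact Subgroup.commutator_mono hDnH hDnH h1
      have hlam1 : ∀ y (hy : y ∈ H), y ∈ ⁅H, H⁆ → (lam ⟨y, hy⟩ : ℂ) = 1 := by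
        intro y hy hyc
        rw [← Subgroup.map_subtype_commutator] at hyc
        obtain ⟨z, hz, hzy⟩ := hyc
        have h6 : z = ⟨y, hy⟩ := Subtype.ext hzy
        rw [← h6]
        have h7 := Abelianization.commutator_subset_ker lam hz
        rw [MonoidHom.mem_ker.mp h7]
        rfl
      have hHH : ⁅H, H⁆ ≤ H := Subgroup.commutator_le_self H
      rw [hχH, indFun_apply, indFun_apply]
      congr 1
      apply Finset.sum_congr rfl
      intro x _
      have hx := hgH' x
      have h1mem : x⁻¹ * 1 * x ∈ H := by simp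
      rw [extendByZero_of_mem H _ (hHH hx), hlam1 _ (hHH hx) hx, extendByZero_of_mem H _ h1mem]
      have e1 : (⟨x⁻¹ * 1 * x, h1mem⟩ : H) = 1 := Subtype.ext (by simp)
      rw [e1, map_one]
      rfl
  rw [Group.isSolvable_def]
  refine ⟨Nat.card G, ?_⟩
  rw [eq_bot_iff]
  intro g hg
  rw [Subgroup.mem_bot]
  apply eq_one_of_forall_irr_eq
  intro χ hχ
  obtain ⟨m, ρ, hρ, hρc⟩ := id hχ
  have hdvd : finrank ℂ (Fin m → ℂ) ∣ Nat.card G := irr_degree_dvd_card ρ
  rw [Module.finrank_fin_fun] at hdvd
  have hle : m ≤ Nat.card G := Nat.le_of_dvd Nat.card_pos hdvd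
  have hd : χ 1 = (m : ℂ) := by
    rw [← hρc, Representation.char_one, Module.finrank_fin_fun]
  exact key (Nat.card G) χ hχ m hd hle g hg

end taketa

end Cfsg.Agent.Lib.Helper2
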