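import Mathlib
import Cfsg.Agent.Lib.Helper11.OmegaOne

set_option autoImplicit false

namespace Cfsg.Agent.Lib.Helper2

open scoped commutatorElement

section classthree

variable {G : Type*} [Group G]

/-- commutation of powers when the commutator is central -/
theorem pow_mul_pow_of_comm {a b c : G} (hab : a * b = c * b * a) (hca : Commute c a)
    (hcb : Commute c b) (m n : ℕ) : a ^ m * b ^ n = c ^ (m * n) * b ^ n * a ^ m := by
  have h1 : ∀ n : ℕ, a * b ^ n = c ^ n * b ^ n * a := by
    intro n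
    induction n with
    | zero => simp
    | succ n ih =>
      calc a * b ^ (n + 1) = (a * b ^ n) * b := by rw [pow_succ, mul_assoc]
        _ = c ^ n * b ^ n * (a * b) := by rw [ih, mul_assoc]
        _ = c ^ n * b ^ n * (c * b * a) := by rw [hab]
        _ = c ^ n * (b ^ n * c) * b * a := by simp only [mul_assoc]
        _ = c ^ n * (c * b ^ n) * b * a := by rw [(hcb.pow_right n).eq]
        _ = c ^ (n + 1) * b ^ (n + 1) * a := by
          rw [pow_succ, pow_succ]
          simp only [mul_assoc]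
  induction m with
  | zero => simp
  | succ m ih =>
    calc a ^ (m + 1) * b ^ n = a * (a ^ m * b ^ n) := by rw [pow_succ', mul_assoc]
      _ = a * (c ^ (m * n) * b ^ n * a ^ m) := by rw [ih]
      _ = (a * c ^ (m * n)) * b ^ n * a ^ m := by simp only [mul_assoc]
      _ = (c ^ (m * n) * a) * b ^ n * a ^ m := by rw [(hca.pow_left (m * n)).eq]
      _ = c ^ (m * n) * (a * b ^ n) * a ^ m := by simp only [mul_assoc]
      _ = c ^ (m * n) * (c ^ n * b ^ n * a) * a ^ m := by rw [h1]
      _ = c ^ ((m + 1) * n) * b ^ n * a ^ (m + 1) := by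
        rw [Nat.succ_mul, pow_add, pow_succ' a]
        simp only [mul_assoc]

theorem pow_mul_class_three_aux {x y z v : G} (hz : y * x = z * x * y) (hv : y * z = v * z * y)
    (hvy : Commute v y) (hvz : Commute v z) (n : ℕ) :
    y ^ n * x = v ^ (n.choose 2) * z ^ n * x * y ^ n := by
  induction n with
  | zero => simp
  | succ n ih =>
    have h1 := pow_mul_pow_of_comm hv hvy hvz 1 n
    rw [pow_one, one_mul] at h1
    have h2 : (n + 1).choose 2 = n + n.choose 2 := by
      rw [Nat.choose_succ_succ' n 1, Nat.choose_one_right]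
    calc y ^ (n + 1) * x = y * (y ^ n * x) := by rw [pow_succ', mul_assoc]
      _ = y * (v ^ (n.choose 2) * z ^ n * x * y ^ n) := by rw [ih]
      _ = (y * v ^ (n.choose 2)) * z ^ n * x * y ^ n := by simp only [mul_assoc]
      _ = (v ^ (n.choose 2) * y) * z ^ n * x * y ^ n := by rw [(hvy.pow_left (n.choose 2)).eq]
      _ = v ^ (n.choose 2) * (y * z ^ n) * x * y ^ n := by simp only [mul_assoc]
      _ = v ^ (n.choose 2) * (v ^ n * z ^ n * y) * x * y ^ n := by rw [h1]
      _ = v ^ (n.choose 2) * v ^ n * z ^ n * (y * x) * y ^ n := by simp only [mul_assoc]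
      _ = v ^ (n.choose 2) * v ^ n * z ^ n * (z * x * y) * y ^ n := by rw [hz]
      _ = v ^ ((n + 1).choose 2) * z ^ (n + 1) * x * y ^ (n + 1) := by
        rw [h2, add_comm n, pow_add, pow_succ z, pow_succ' y]
        simp only [mul_assoc]

/-- the power formula in class three -/
theorem mul_pow_class_three {x y z u v : G} (hz : y * x = z * x * y) (hu : z * x = u * x * z)
    (hv : y * z = v * z * y) (hux : Commute u x) (huz : Commute u z)
    (hvx : Commute v x) (hvy : Commute v y) (hvz : Commute v z) (huv : Commute u v) (n : ℕ) :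
    (x * y) ^ n = (u ^ ((n + 1).choose 3) * v ^ (n.choose 3))
      * (x ^ n * z ^ (n.choose 2) * y ^ n) := by
  induction n with
  | zero => simp [show Nat.choose 1 3 = 0 from rfl]
  | succ n ih =>
    have hA := pow_mul_pow_of_comm hu huz hux (n.choose 2 + n) 1
    rw [pow_one, mul_one] at hA
    have hB := pow_mul_class_three_aux hz hv hvy hvz n
    have h2 : (n + 1).choose 2 = n.choose 2 + n := by
      rw [Nat.choose_succ_succ' n 1, Nat.choose_one_right, add_comm]
    have h3 : (n + 1 + 1).choose 3 = (n + 1).choose 3 + (n.choose 2 + n) := by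
      rw [Nat.choose_succ_succ' (n + 1) 2, h2, add_comm]
    have h4 : (n + 1).choose 3 = n.choose 3 + n.choose 2 := by
      rw [Nat.choose_succ_succ' n 2, add_comm]
    have m1 : Commute (v ^ (n.choose 2)) (x ^ n * z ^ (n.choose 2)) :=
      ((hvx.pow_pow _ _).mul_right (hvz.pow_pow _ _))
    have m2 : Commute (u ^ (n.choose 2 + n)) (x ^ n) := hux.pow_pow _ _
    calc (x * y) ^ (n + 1) = (x * y) ^ n * (x * y) := pow_succ _ _
      _ = (u ^ ((n + 1).choose 3) * v ^ (n.choose 3))
            * (x ^ n * z ^ (n.choose 2) * y ^ n) * (x * y) := by rw [ih]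
      _ = (u ^ ((n + 1).choose 3) * v ^ (n.choose 3))
            * ((x ^ n * z ^ (n.choose 2)) * (y ^ n * x) * y) := by simp only [mul_assoc]
      _ = (u ^ ((n + 1).choose 3) * v ^ (n.choose 3))
            * ((x ^ n * z ^ (n.choose 2)) * (v ^ (n.choose 2) * z ^ n * x * y ^ n) * y) := by
        rw [hB]
      _ = (u ^ ((n + 1).choose 3) * v ^ (n.choose 3))
            * (((x ^ n * z ^ (n.choose 2)) * v ^ (n.choose 2)) * z ^ n * x * y ^ n * y) := by
        simp only [mul_assoc]
      _ = (u ^ ((n + 1).choose 3) * v ^ (n.choose 3))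
            * ((v ^ (n.choose 2) * (x ^ n * z ^ (n.choose 2))) * z ^ n * x * y ^ n * y) := by
        rw [m1.eq]
      _ = (u ^ ((n + 1).choose 3) * v ^ (n.choose 3))
            * (v ^ (n.choose 2) * (x ^ n * (z ^ (n.choose 2 + n) * x) * y ^ (n + 1))) := by
        rw [pow_add z, pow_succ y]
        simp only [mul_assoc]
      _ = (u ^ ((n + 1).choose 3) * v ^ (n.choose 3))
            * (v ^ (n.choose 2) * (x ^ n * (u ^ (n.choose 2 + n) * x * z ^ (n.choose 2 + n))
              * y ^ (n + 1))) := by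
        rw [hA]
      _ = (u ^ ((n + 1).choose 3) * v ^ (n.choose 3))
            * (v ^ (n.choose 2) * ((x ^ n * u ^ (n.choose 2 + n)) * x * z ^ (n.choose 2 + n)
              * y ^ (n + 1))) := by
        simp only [mul_assoc]
      _ = (u ^ ((n + 1).choose 3) * v ^ (n.choose 3))
            * (v ^ (n.choose 2) * ((u ^ (n.choose 2 + n) * x ^ n) * x * z ^ (n.choose 2 + n)
              * y ^ (n + 1))) := by
        rw [m2.eq]
      _ = (u ^ ((n + 1).choose 3) * (v ^ (n.choose 3) * v ^ (n.choose 2))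
            * u ^ (n.choose 2 + n)) * (x ^ n * x * z ^ (n.choose 2 + n) * y ^ (n + 1)) := by
        simp only [mul_assoc]
      _ = (u ^ ((n + 1).choose 3) * (u ^ (n.choose 2 + n) * (v ^ (n.choose 3) * v ^ (n.choose 2))))
            * (x ^ n * x * z ^ (n.choose 2 + n) * y ^ (n + 1)) := by
        rw [mul_assoc (u ^ ((n + 1).choose 3)), ((huv.pow_pow (n.choose 2 + n)
          (n.choose 3)).mul_right (huv.pow_pow (n.choose 2 + n) (n.choose 2))).eq]
      _ = (u ^ ((n + 1 + 1).choose 3) * v ^ ((n + 1).choose 3))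
            * (x ^ (n + 1) * z ^ ((n + 1).choose 2) * y ^ (n + 1)) := by
        have key : u ^ ((n + 1 + 1).choose 3)
            = u ^ ((n + 1).choose 3) * u ^ (n.choose 2 + n) := by rw [h3, pow_add]
        have key2 : v ^ ((n + 1).choose 3) = v ^ (n.choose 3) * v ^ (n.choose 2) := by
          rw [h4, pow_add]
        rw [key, key2, h2, pow_succ x]
        simp only [mul_assoc]

end classthree

section apps

variable {R : Type*} [Group R]

theorem commute_comm_of_class_three
    (hcl : ⁅⁅commutator R, (⊤ : Subgroup R)⁆, (⊤ : Subgroup R)⁆ = ⊥) {c : R}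
    (hc : c ∈ commutator R) (g h : R) : Commute ⁅c, g⁆ h := by
  rw [← commutatorElement_eq_one_iff_commute]
  have h1 : ⁅⁅c, g⁆, h⁆ ∈ ⁅⁅commutator R, (⊤ : Subgroup R)⁆, (⊤ : Subgroup R)⁆ :=
    Subgroup.commutator_mem_commutator
      (Subgroup.commutator_mem_commutator hc (Subgroup.mem_top g)) (Subgroup.mem_top h)
  rw [hcl] at h1
  exact Subgroup.mem_bot.mp h1

theorem comm_mem_commutator (a b : R) : ⁅a, b⁆ ∈ commutator R :=
  Subgroup.commutator_mem_commutator (Subgroup.mem_top a) (Subgroup.mem_top b)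

/-- the power formula in a group with trivial triple commutators -/
theorem mul_pow_of_class_three
    (hcl : ⁅⁅commutator R, (⊤ : Subgroup R)⁆, (⊤ : Subgroup R)⁆ = ⊥) (x y : R) (n : ℕ) :
    (x * y) ^ n = (⁅⁅y, x⁆, x⁆ ^ ((n + 1).choose 3) * ⁅y, ⁅y, x⁆⁆ ^ (n.choose 3))
      * (x ^ n * ⁅y, x⁆ ^ (n.choose 2) * y ^ n) := by
  have hzc : ⁅y, x⁆ ∈ commutator R := comm_mem_commutator y x
  have hv : ∀ h : R, Commute ⁅y, ⁅y, x⁆⁆ h := by
    intro h
    have h1 := commute_comm_of_class_three hcl hzc y h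
    have h2 : ⁅y, ⁅y, x⁆⁆ = ⁅⁅y, x⁆, y⁆⁻¹ := (commutatorElement_inv _ _).symm
    rw [h2]
    exact h1.inv_left
  apply mul_pow_class_three
  · simp only [commutatorElement_def]
    group
  · simp only [commutatorElement_def]
    group
  · simp only [commutatorElement_def]
    group
  · exact commute_comm_of_class_three hcl hzc x x
  · exact commute_comm_of_class_three hcl hzc x _
  · exact hv x
  · exact hv y
  · exact hv _
  · exact commute_comm_of_class_three hcl hzc x _

theorem pow_eq_one_of_dvd {g : R} {p k : ℕ} (hg : g ^ p = 1) (hk : p ∣ k) : g ^ k = 1 := by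
  obtain ⟨m, rfl⟩ := hk
  rw [pow_mul, hg, one_pow]

/-- multiplicativity of the `p`-th power map in class three when the commutator has order
dividing `p` -/
theorem mul_pow_prime_of_class_three {p : ℕ} (hp : p.Prime) (hp3 : 3 < p)
    (hcl : ⁅⁅commutator R, (⊤ : Subgroup R)⁆, (⊤ : Subgroup R)⁆ = ⊥) (x y : R)
    (hz : ⁅y, x⁆ ^ p = 1) : (x * y) ^ p = x ^ p * y ^ p := by
  have hzc : ⁅y, x⁆ ∈ commutator R := comm_mem_commutator y x
  have hu : ⁅⁅y, x⁆, x⁆ ^ p = 1 := by
    have h1 := Cfsg.Agent.Lib.Helper11.commElem_pow_left ⁅y, x⁆ x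
      (commute_comm_of_class_three hcl hzc x _).eq p
    rw [← h1, hz]
    simp [commutatorElement_def]
  have hv : ⁅y, ⁅y, x⁆⁆ ^ p = 1 := by
    have h1 := Cfsg.Agent.Lib.Helper11.commElem_pow_left ⁅y, x⁆ y
      (commute_comm_of_class_three hcl hzc y _).eq p
    have h2 : ⁅y, ⁅y, x⁆⁆ = ⁅⁅y, x⁆, y⁆⁻¹ := (commutatorElement_inv _ _).symm
    rw [h2, inv_pow, ← h1, hz]
    simp [commutatorElement_def]
  have d2 : p ∣ p.choose 2 := hp.dvd_choose_self (by norm_num) (by omega)
  have d3 : p ∣ p.choose 3 := hp.dvd_choose_self (by norm_num) (by omega)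
  have d4 : p ∣ (p + 1).choose 3 := by
    rw [Nat.choose_succ_succ' p 2]
    exact dvd_add d2 d3
  rw [mul_pow_of_class_three hcl x y p, pow_eq_one_of_dvd hu d4, pow_eq_one_of_dvd hv d3,
    pow_eq_one_of_dvd hz d2]
  simp

/-- in class two (odd `p`), products of elements of order dividing `p` have order dividing `p` -/
theorem mul_pow_prime_eq_one_class_two {p : ℕ} (hp : p.Prime) (hp2 : p ≠ 2)
    {a b : R} (hc : ∀ g : R, Commute ⁅b, a⁆ g) (ha : a ^ p = 1) (hb : b ^ p = 1) :
    (a * b) ^ p = 1 := by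
  have h1 := Cfsg.Agent.Lib.Helper11.mul_pow_class_two a b (hc a).eq (hc b).eq p
  have h2 := Cfsg.Agent.Lib.Helper11.commElem_pow_left b a (hc b).eq p
  rw [hb] at h2
  have h3 : ⁅b, a⁆ ^ p = 1 := by
    rw [← h2]
    simp [commutatorElement_def]
  have hodd : 2 ∣ p - 1 := by
    have := hp.eq_one_or_self_of_dvd 2
    rcases Nat.even_or_odd p with he | ho
    · exact absurd ((hp.eq_one_or_self_of_dvd 2 he.two_dvd).resolve_left (by norm_num)).symm hp2
    · obtain ⟨k, hk⟩ := ho
      exact ⟨k, by omega⟩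
  have h4 : p ∣ p * (p - 1) / 2 := by
    rw [Nat.mul_div_assoc p hodd]
    exact dvd_mul_right _ _
  rw [h1, ha, hb, pow_eq_one_of_dvd h3 h4]
  simp

/-- in class three (`p > 3`), products of elements of order dividing `p` have order dividing
`p` -/
theorem mul_pow_prime_eq_one_class_three {p : ℕ} (hp : p.Prime) (hp3 : 3 < p)
    (hcl : ⁅⁅commutator R, (⊤ : Subgroup R)⁆, (⊤ : Subgroup R)⁆ = ⊥) {x y : R}
    (hx : x ^ p = 1) (hy : y ^ p = 1) : (x * y) ^ p = 1 := by
  have hz : ⁅y, x⁆ ^ p = 1 := by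
    have e1 : ⁅y, x⁆ = y * (x * y⁻¹ * x⁻¹) := by
      rw [commutatorElement_def]
      simp only [mul_assoc]
    have e2 : (x * y⁻¹ * x⁻¹) ^ p = 1 := by
      rw [conj_pow, inv_pow, hy]
      simp
    have e3 : ∀ g : R, Commute ⁅x * y⁻¹ * x⁻¹, y⁆ g := by
      intro g
      have e4 : ⁅x * y⁻¹ * x⁻¹, y⁆ = ⁅⁅x, y⁻¹⁆, y⁆ := by
        simp only [commutatorElement_def]
        group
      rw [e4]
      exact commute_comm_of_class_three hcl (comm_mem_commutator x y⁻¹) y g
    rw [e1]
    exact mul_pow_prime_eq_one_class_two hp (by omega) e3 hy e2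
  rw [mul_pow_prime_of_class_three hp hp3 hcl x y hz, hx, hy, one_mul]

theorem pow_eq_one_of_mem_closure {p : ℕ}
    (hmul : ∀ a b : R, a ^ p = 1 → b ^ p = 1 → (a * b) ^ p = 1) {g : R}
    (hg : g ∈ Subgroup.closure {x : R | x ^ p = 1}) : g ^ p = 1 := by
  induction hg using Subgroup.closure_induction with
  | mem x hx => exact hx
  | one => exact one_pow p
  | mul a b _ _ ha hb => exact hmul a b ha hb
  | inv a _ ha => rw [inv_pow, ha, inv_one]

end apps

end Cfsg.Agent.Lib.Helper2
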