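import Mathlib
import Cfsg.Prelude.Def_Characters
import Cfsg.Agent.Lib.Helper2.GaloisAvg

set_option autoImplicit false

namespace Cfsg.Agent.Lib.Helper2

open Representation Module

noncomputable section

/-- the exponent by which a Galois automorphism of the cyclotomic field acts on roots of unity -/
def galExp (n : ℕ) [NeZero n] (σ : CycK n ≃ₐ[ℚ] CycK n) : ℕ := Classical.choose (aut_zeta n σ)

theorem galExp_coprime (n : ℕ) [NeZero n] (σ : CycK n ≃ₐ[ℚ] CycK n) :
    (galExp n σ).Coprime n := (Classical.choose_spec (aut_zeta n σ)).1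

theorem galExp_spec (n : ℕ) [NeZero n] (σ : CycK n ≃ₐ[ℚ] CycK n) :
    σ (cycZeta n) = cycZeta n ^ galExp n σ := (Classical.choose_spec (aut_zeta n σ)).2

variable {G : Type*} [Group G] [Fintype G]
variable {V : Type*} [AddCommGroup V] [Module ℂ V] [FiniteDimensional ℂ V]

/-- Galois averaging of a nonzero character value: the sum over the Galois group of the squared
absolute values at the powers `g ^ m(σ)` is at least the order of the Galois group -/
theorem galois_avg_char [NeZero (Fintype.card G)] (ρ : Representation ℂ G V) (g : G)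
    (hne : ρ.character g ≠ 0) :
    (Fintype.card (CycK (Fintype.card G) ≃ₐ[ℚ] CycK (Fintype.card G)) : ℝ)
      ≤ ∑ σ : CycK (Fintype.card G) ≃ₐ[ℚ] CycK (Fintype.card G),
          ‖ρ.character (g ^ galExp (Fintype.card G) σ)‖ ^ 2 := by
  obtain ⟨x, hx1, hx2⟩ := char_lift_self (Fintype.card G) ρ g (orderOf_dvd_card)
  have hx0 : x ≠ 0 := by
    intro h0
    apply hne
    rw [← hx1, h0, map_zero]
  have hxint : IsIntegral ℤ x := by
    have h1 : IsIntegral ℤ (cycEmb (Fintype.card G) x) := by
      rw [hx1]
      exact char_isIntegral ρ g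
    exact (isIntegral_algHom_iff ((cycEmb (Fintype.card G)).restrictScalars ℤ)
      (cycEmb_injective (Fintype.card G))).mp h1
  have h := galois_avg_ge (Fintype.card G) x hx0 hxint
  refine h.trans (le_of_eq ?_)
  apply Finset.sum_congr rfl
  intro σ _
  rw [hx2 σ _ (galExp_spec (Fintype.card G) σ)]

end

end Cfsg.Agent.Lib.Helper2
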