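import Mathlib

set_option autoImplicit false

namespace Cfsg.Agent.Lib.Helper2

section homcount

/-- the number of homomorphisms from a finite group `E` to a commutative group `Z` of prime
order is at most the index of the derived subgroup of `E` -/
theorem card_monoidHom_le_index_commutator {E Z : Type*} [Group E] [Finite E] [CommGroup Z]
    [Finite Z] {p : ℕ} (hp : p.Prime) (hZ : Nat.card Z = p) :
    Finite (E →* Z) ∧ Nat.card (E →* Z) ≤ (commutator E).index := by
  classical
  have hnt : Nontrivial Z := by
    rw [← Finite.one_lt_card_iff_nontrivial, hZ]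
    exact hp.one_lt
  obtain ⟨a, ha⟩ := exists_ne (1 : Z)
  obtain ⟨ι, hι⟩ := CommGroup.exists_apply_ne_one_of_hasEnoughRootsOfUnity Z ℂ ha
  have hιinj : Function.Injective ι := by
    rw [← MonoidHom.ker_eq_bot_iff]
    have : Fact (Nat.card Z).Prime := ⟨hZ ▸ hp⟩
    rcases Subgroup.eq_bot_or_eq_top_of_prime_card (ι.ker) with h | h
    · exact h
    · exfalso
      apply hι
      have : a ∈ ι.ker := by
        rw [h]
        trivial
      exact MonoidHom.mem_ker.mp this
  have hcard : Nat.card (Abelianization E →* ℂˣ) = Nat.card (Abelianization E) :=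
    CommGroup.card_monoidHom_of_hasEnoughRootsOfUnity (Abelianization E) ℂ
  have hfin : Finite (Abelianization E →* ℂˣ) := by
    apply Nat.finite_of_card_ne_zero
    rw [hcard]
    exact Nat.card_pos.ne'
  have hFinj : Function.Injective
      (fun φ : E →* Z => (Abelianization.lift (ι.comp φ) : Abelianization E →* ℂˣ)) := by
    intro φ ψ h
    have h1 : ι.comp φ = ι.comp ψ := Abelianization.lift.injective h
    ext x
    apply hιinj
    exact DFunLike.congr_fun h1 x
  refine ⟨Finite.of_injective _ hFinj, ?_⟩
  have h2 := Nat.card_le_card_of_injective _ hFinj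
  rw [hcard] at h2
  have h3 : Nat.card (Abelianization E) = (commutator E).index := by
    rw [Subgroup.index_eq_card]
    rfl
  rw [h3] at h2
  exact h2

end homcount

end Cfsg.Agent.Lib.Helper2
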