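import Mathlib

set_option autoImplicit false

namespace Cfsg.Agent.Lib.Helper2

open scoped commutatorElement

/-- induction along the upper central series of `G ⧸ A`: a set `S` that is stable under
`x ↦ ⁅x, g⁆` whenever `⁅x, ⁅x, g⁆⁆ ∈ A`, and whose elements central modulo `A` lie in `A`,
is contained in `A` -/
theorem level_induction {G : Type*} [Group G] [Group.IsNilpotent G] (A : Subgroup G) [A.Normal]
    (S : Set G) (H1 : ∀ x ∈ S, ∀ g : G, ⁅x, ⁅x, g⁆⁆ ∈ A → ⁅x, g⁆ ∈ S)
    (H2 : ∀ x ∈ S, (∀ g : G, ⁅x, g⁆ ∈ A) → x ∈ A) : ∀ x ∈ S, x ∈ A := by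
  have hZ0 : ∀ g : G, g ∈ (Subgroup.upperCentralSeries (G ⧸ A) 0).comap (QuotientGroup.mk' A) ↔ g ∈ A := by
    intro g
    rw [Subgroup.mem_comap, Subgroup.upperCentralSeries_zero, Subgroup.mem_bot]
    exact QuotientGroup.eq_one_iff g
  have hZsucc : ∀ (j : ℕ) (g : G),
      g ∈ (Subgroup.upperCentralSeries (G ⧸ A) (j + 1)).comap (QuotientGroup.mk' A) ↔
        ∀ h : G, ⁅g, h⁆ ∈ (Subgroup.upperCentralSeries (G ⧸ A) j).comap (QuotientGroup.mk' A) := by
    intro j g
    rw [Subgroup.mem_comap, Subgroup.mem_upperCentralSeries_succ_iff]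
    constructor
    · intro h1 h
      rw [Subgroup.mem_comap, map_commutatorElement]
      exact h1 _
    · intro h1 y
      obtain ⟨h, rfl⟩ := QuotientGroup.mk_surjective y
      have := h1 h
      rw [Subgroup.mem_comap, map_commutatorElement] at this
      exact this
  have hZmono : ∀ j k : ℕ, j ≤ k →
      (Subgroup.upperCentralSeries (G ⧸ A) j).comap (QuotientGroup.mk' A)
        ≤ (Subgroup.upperCentralSeries (G ⧸ A) k).comap (QuotientGroup.mk' A) :=
    fun j k hjk => Subgroup.comap_mono (Subgroup.upperCentralSeries_mono (G ⧸ A) hjk)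
  have main : ∀ j : ℕ, ∀ x ∈ S,
      x ∈ (Subgroup.upperCentralSeries (G ⧸ A) j).comap (QuotientGroup.mk' A) → x ∈ A := by
    intro j
    induction j with
    | zero =>
      intro x _ hx
      exact (hZ0 x).mp hx
    | succ j ih =>
      intro x hxS hx
      have sub : ∀ k : ℕ, k ≤ j →
          ∀ g ∈ (Subgroup.upperCentralSeries (G ⧸ A) k).comap (QuotientGroup.mk' A), ⁅x, g⁆ ∈ A := by
        intro k
        induction k with
        | zero =>
          intro _ g hg
          have hgA : g ∈ A := (hZ0 g).mp hg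
          rw [commutatorElement_def]
          have h1 : x * g * x⁻¹ ∈ A := ‹A.Normal›.conj_mem g hgA x
          exact A.mul_mem h1 (A.inv_mem hgA)
        | succ k ihk =>
          intro hk g hg
          have hw : ⁅x, g⁆ ∈ (Subgroup.upperCentralSeries (G ⧸ A) k).comap (QuotientGroup.mk' A) := by
            have h1 := (hZsucc k g).mp hg x
            have h2 := Subgroup.inv_mem _ h1
            rwa [commutatorElement_inv] at h2
          have h3 : ⁅x, ⁅x, g⁆⁆ ∈ A := ihk (by omega) _ hw
          have h4 : ⁅x, g⁆ ∈ S := H1 x hxS g h3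
          exact ih _ h4 (hZmono k j (by omega) hw)
      apply H2 x hxS
      intro g
      have hw : ⁅x, g⁆ ∈ (Subgroup.upperCentralSeries (G ⧸ A) j).comap (QuotientGroup.mk' A) :=
        (hZsucc j x).mp hx g
      have h3 : ⁅x, ⁅x, g⁆⁆ ∈ A := sub j le_rfl _ hw
      have h4 : ⁅x, g⁆ ∈ S := H1 x hxS g h3
      exact ih _ h4 hw
  obtain ⟨n, hn⟩ := Group.IsNilpotent.nilpotent (G ⧸ A)
  intro x hx
  apply main n x hx
  rw [hn]
  trivial

end Cfsg.Agent.Lib.Helper2
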