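import Mathlib

set_option autoImplicit false

namespace Cfsg.Agent.Lib.Helper2

section transfer

variable {H : Type*} [Group H] [Finite H] {p : ℕ} [Fact p.Prime]

/-- a central element of the derived subgroup lying in a Sylow subgroup `P` lies in `P'`
(transfer into `P / P'`) -/
theorem center_inf_sylow_le_commutator (P : Sylow p H) {z : H}
    (hzc : z ∈ Subgroup.center H) (hzd : z ∈ commutator H) (hzP : z ∈ (P : Subgroup H)) :
    (⟨z, hzP⟩ : (P : Subgroup H)) ∈ commutator (P : Subgroup H) := by
  have h1 : MonoidHom.transfer (Abelianization.of (G := (P : Subgroup H))) z = 1 := by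
    have := Abelianization.commutator_subset_ker
      (MonoidHom.transfer (Abelianization.of (G := (P : Subgroup H))))
    exact MonoidHom.mem_ker.mp (this hzd)
  have key : ∀ (k : ℕ) (g₀ : H), g₀⁻¹ * z ^ k * g₀ ∈ (P : Subgroup H) →
      g₀⁻¹ * z ^ k * g₀ = z ^ k := by
    intro k g₀ _
    have hc : z ^ k ∈ Subgroup.center H := pow_mem hzc k
    rw [mul_assoc, ← Subgroup.mem_center_iff.mp hc g₀, inv_mul_cancel_left]
  rw [MonoidHom.transfer_eq_pow (Abelianization.of (G := (P : Subgroup H))) z key] at h1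
  have h2 : (⟨z ^ (P : Subgroup H).index, MonoidHom.transfer_eq_pow_aux z key⟩ : (P : Subgroup H))
      ∈ commutator (P : Subgroup H) := by
    rw [← Abelianization.ker_of]
    exact MonoidHom.mem_ker.mpr h1
  have h3 : (⟨z, hzP⟩ : (P : Subgroup H)) ^ (P : Subgroup H).index
      ∈ commutator (P : Subgroup H) := h2
  have hK : IsPGroup p (commutator (P : Subgroup H)) := P.isPGroup'.to_subgroup _
  obtain ⟨y, hy⟩ := (hK.powEquiv' P.not_dvd_index).surjective ⟨_, h3⟩
  have hy' : (y : (P : Subgroup H)) ^ (P : Subgroup H).index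
      = (⟨z, hzP⟩ : (P : Subgroup H)) ^ (P : Subgroup H).index := congrArg Subtype.val hy
  have hyz : (y : (P : Subgroup H)) = ⟨z, hzP⟩ :=
    (P.isPGroup'.powEquiv' P.not_dvd_index).injective hy'
  rw [← hyz]
  exact y.2

end transfer

end Cfsg.Agent.Lib.Helper2
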