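import Mathlib

/-!
# An abstract lemma on commuting actions of a group of order `p ^ 2` on an abelian group
-/

set_option autoImplicit false

namespace Cfsg.Agent.Lib.Helper2

set_option maxHeartbeats 1600000 in
/-- if every point is fixed by an element outside `Z` and no element outside `Z` acts trivially,
all displacements lie in one cyclic subgroup of order dividing `p` -/
theorem sq_action_cyclic {G : Type*} {Ω : Type*} [Group G] [Finite G] [CommGroup Ω]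
    (p : ℕ) [Fact p.Prime] (Z : Subgroup G) (hZidx : Z.index = p ^ 2)
    (act : G → Ω →* Ω)
    (hmul : ∀ g h ν, act (g * h) ν = act h (act g ν))
    (hone : ∀ ν, act 1 ν = ν)
    (hcomm : ∀ g h ν, act g (act h ν) = act h (act g ν))
    (hZ : ∀ z ∈ Z, ∀ ν, act z ν = ν)
    (H1 : ∀ ν, ∃ w, w ∉ Z ∧ act w ν = ν)
    (H2 : ∀ w, w ∉ Z → ∃ ν, act w ν ≠ ν) :
    ∃ α : Ω, α ^ p = 1 ∧ ∀ g ν, ∃ j : ℕ, act g ν = ν * α ^ j := by
  classical
  have hp : p.Prime := Fact.out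
  have hp2 : 2 ≤ p := hp.two_le
  obtain ⟨stab, hmem⟩ : ∃ stab : Ω → Subgroup G, ∀ ν g, g ∈ stab ν ↔ act g ν = ν := by
    refine ⟨fun ν =>
      { carrier := {g | act g ν = ν}
        mul_mem' := ?_
        one_mem' := hone ν
        inv_mem' := ?_ }, fun ν g => Iff.rfl⟩
    · intro a b ha hb
      have ha' : act a ν = ν := ha
      have hb' : act b ν = ν := hb
      show act (a * b) ν = ν
      rw [hmul, ha', hb']
    · intro a ha
      have ha' : act a ν = ν := ha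
      show act a⁻¹ ν = ν
      have h : act a⁻¹ (act a ν) = ν := by rw [← hmul, mul_inv_cancel, hone]
      rwa [ha'] at h
  have hZle : ∀ ν, Z ≤ stab ν := fun ν z hz => (hmem ν z).mpr (hZ z hz ν)
  have hnorm : ∀ ν, (stab ν).Normal := by
    intro ν
    constructor
    intro n hn g
    rw [hmem] at hn ⊢
    rw [hmul, hmul, hcomm n g ν, hn, ← hmul, mul_inv_cancel, hone]
  have hidx : ∀ ν, stab ν = ⊤ ∨ (stab ν).index = p := by
    intro ν
    have hrel := Subgroup.relIndex_mul_index (hZle ν)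
    rw [hZidx] at hrel
    have hdvd : (stab ν).index ∣ p ^ 2 := Dvd.intro_left _ hrel
    obtain ⟨j, hj2, hj⟩ := (Nat.dvd_prime_pow hp).mp hdvd
    have hj' : j = 0 ∨ j = 1 ∨ j = 2 := by omega
    rcases hj' with rfl | rfl | rfl
    · left; rw [pow_zero] at hj; exact Subgroup.index_eq_one.mp hj
    · right; rw [pow_one] at hj; exact hj
    · exfalso
      rw [hj] at hrel
      have h2 : Z.relIndex (stab ν) * p ^ 2 = 1 * p ^ 2 := by rw [hrel, one_mul]
      have h3 := Nat.eq_of_mul_eq_mul_right (by positivity) h2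
      obtain ⟨w, hwZ, hw⟩ := H1 ν
      exact hwZ (Subgroup.relIndex_eq_one.mp h3 ((hmem ν w).mpr hw))
  have hpair : ∀ ν₁ ν₂, (stab ν₁).index = p → (stab ν₂).index = p → stab ν₁ ≠ stab ν₂ →
      (∀ g, g ∈ stab ν₁ → g ∈ stab ν₂ → g ∈ Z) ∧ stab ν₁ ⊔ stab ν₂ = ⊤ := by
    intro ν₁ ν₂ h1 h2 hne
    have hnle : ¬ stab ν₁ ≤ stab ν₂ := by
      intro hle
      have hrel := Subgroup.relIndex_mul_index hle
      rw [h1, h2] at hrel
      have h3 : (stab ν₁).relIndex (stab ν₂) * p = 1 * p := by rw [hrel, one_mul]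
      have h4 := Nat.eq_of_mul_eq_mul_right hp.pos h3
      exact hne (le_antisymm hle (Subgroup.relIndex_eq_one.mp h4))
    constructor
    · intro g hg1 hg2
      by_contra hgZ
      obtain ⟨I, hIdef⟩ : ∃ I : Subgroup G, I = stab ν₁ ⊓ stab ν₂ := ⟨_, rfl⟩
      have hZI : Z ≤ I := hIdef ▸ le_inf (hZle ν₁) (hZle ν₂)
      have hI1 : I ≤ stab ν₁ := hIdef ▸ inf_le_left
      have hI2 : I ≤ stab ν₂ := hIdef ▸ inf_le_right
      have hgI : g ∈ I := hIdef ▸ Subgroup.mem_inf.mpr ⟨hg1, hg2⟩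
      have hrel := Subgroup.relIndex_mul_index hZI
      rw [hZidx] at hrel
      have hrel1 := Subgroup.relIndex_mul_index hI1
      rw [h1] at hrel1
      have hdvd : I.index ∣ p ^ 2 := Dvd.intro_left _ hrel
      obtain ⟨j, hj2, hj⟩ := (Nat.dvd_prime_pow hp).mp hdvd
      have hj' : j = 0 ∨ j = 1 ∨ j = 2 := by omega
      rcases hj' with rfl | rfl | rfl
      · rw [pow_zero] at hj
        have hItop : I = ⊤ := Subgroup.index_eq_one.mp hj
        exact hnle (fun x _ => hI2 (hItop ▸ Subgroup.mem_top x))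
      · rw [pow_one] at hj
        rw [hj] at hrel1
        have h3 : I.relIndex (stab ν₁) * p = 1 * p := by rw [hrel1, one_mul]
        have h4 := Nat.eq_of_mul_eq_mul_right hp.pos h3
        exact hnle (fun x hx => hI2 (Subgroup.relIndex_eq_one.mp h4 hx))
      · rw [hj] at hrel
        have h3 : Z.relIndex I * p ^ 2 = 1 * p ^ 2 := by rw [hrel, one_mul]
        have h4 := Nat.eq_of_mul_eq_mul_right (by positivity) h3
        exact hgZ (Subgroup.relIndex_eq_one.mp h4 hgI)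
    · obtain ⟨S, hSdef⟩ : ∃ S : Subgroup G, S = stab ν₁ ⊔ stab ν₂ := ⟨_, rfl⟩
      have h1S : stab ν₁ ≤ S := hSdef ▸ le_sup_left
      have h2S : stab ν₂ ≤ S := hSdef ▸ le_sup_right
      rw [← hSdef]
      have hrel := Subgroup.relIndex_mul_index h1S
      rw [h1] at hrel
      have hdvd : S.index ∣ p := Dvd.intro_left _ hrel
      rcases (Nat.dvd_prime hp).mp hdvd with h3 | h3
      · exact Subgroup.index_eq_one.mp h3
      · exfalso
        rw [h3] at hrel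
        have h4 : (stab ν₁).relIndex S * p = 1 * p := by rw [hrel, one_mul]
        have h5 := Nat.eq_of_mul_eq_mul_right hp.pos h4
        have hle : stab ν₂ ≤ stab ν₁ := fun x hx => Subgroup.relIndex_eq_one.mp h5 (h2S hx)
        have hrel' := Subgroup.relIndex_mul_index hle
        rw [h1, h2] at hrel'
        have h6 : (stab ν₂).relIndex (stab ν₁) * p = 1 * p := by rw [hrel', one_mul]
        have h7 := Nat.eq_of_mul_eq_mul_right hp.pos h6
        exact hne (le_antisymm (Subgroup.relIndex_eq_one.mp h7) hle)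
  have hinv_of : ∀ (β : Ω) (ν₁ ν₂ : Ω), stab ν₁ ⊔ stab ν₂ = ⊤ → (∀ t ∈ stab ν₁, act t β = β) →
      (∀ t ∈ stab ν₂, act t β = β) → ∀ x, act x β = β := by
    intro β ν₁ ν₂ hsup h1 h2 x
    have hx : x ∈ stab ν₁ ⊔ stab ν₂ := hsup ▸ Subgroup.mem_top x
    have hle : stab ν₁ ⊔ stab ν₂ ≤ stab β :=
      sup_le (fun t ht => (hmem β t).mpr (h1 t ht)) (fun t ht => (hmem β t).mpr (h2 t ht))
    exact (hmem β x).mp (hle hx)
  have hpow : ∀ (g : G) (ν β : Ω), act g ν = ν * β → act g β = β →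
      ∀ m : ℕ, act (g ^ m) ν = ν * β ^ m := by
    intro g ν β h1 h2 m
    induction m with
    | zero => rw [pow_zero, pow_zero, mul_one, hone]
    | succ k ih =>
      rw [pow_succ, hmul, ih, map_mul, map_pow, h1, h2, pow_succ, mul_assoc, mul_comm β]
  have hQ : ∀ (ν β : Ω) (g : G), (stab ν).index = p → g ∉ stab ν → act g ν = ν * β →
      (∀ x, act x β = β) → β ^ p = 1 ∧ ∀ x, ∃ m : ℕ, act x ν = ν * β ^ m := by
    intro ν β g hidxν hg h1 hβ
    haveI := hnorm ν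
    constructor
    · have h2 : g ^ p ∈ stab ν := by
        have := Subgroup.pow_index_mem (stab ν) g
        rwa [hidxν] at this
      have h3 := hpow g ν β h1 (hβ g) p
      rw [(hmem ν _).mp h2] at h3
      have h4 : ν * β ^ p = ν * 1 := by rw [mul_one]; exact h3.symm
      exact mul_left_cancel h4
    · intro x
      have hsup : stab ν ⊔ Subgroup.zpowers g = ⊤ := by
        obtain ⟨S, hSdef⟩ : ∃ S : Subgroup G, S = stab ν ⊔ Subgroup.zpowers g := ⟨_, rfl⟩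
        have h1S : stab ν ≤ S := hSdef ▸ le_sup_left
        have hgS : g ∈ S := hSdef ▸ Subgroup.mem_sup_right (Subgroup.mem_zpowers g)
        rw [← hSdef]
        have hrel := Subgroup.relIndex_mul_index h1S
        rw [hidxν] at hrel
        have hdvd : S.index ∣ p := Dvd.intro_left _ hrel
        rcases (Nat.dvd_prime hp).mp hdvd with h3 | h3
        · exact Subgroup.index_eq_one.mp h3
        · exfalso
          rw [h3] at hrel
          have h4 : (stab ν).relIndex S * p = 1 * p := by rw [hrel, one_mul]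
          have h5 := Nat.eq_of_mul_eq_mul_right hp.pos h4
          exact hg (Subgroup.relIndex_eq_one.mp h5 hgS)
      have hx : x ∈ stab ν ⊔ Subgroup.zpowers g := hsup ▸ Subgroup.mem_top x
      obtain ⟨t, ht, z, hz, rfl⟩ := Subgroup.mem_sup_of_normal_left.mp hx
      rw [← mem_powers_iff_mem_zpowers] at hz
      obtain ⟨m, rfl⟩ := (Submonoid.mem_powers_iff _ _).mp hz
      refine ⟨m, ?_⟩
      rw [hmul, (hmem ν t).mp ht]
      exact hpow g ν β h1 (hβ g) m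
  have hP : ∀ ν₁ ν₂, (stab ν₁).index = p → (stab ν₂).index = p → stab ν₁ ≠ stab ν₂ →
      ∃ g, g ∉ stab ν₁ ∧ g ∉ stab ν₂ ∧ act g (ν₁ * ν₂) = ν₁ * ν₂ := by
    intro ν₁ ν₂ h1 h2 hne
    obtain ⟨hint, -⟩ := hpair ν₁ ν₂ h1 h2 hne
    obtain ⟨w, hwZ, hw⟩ := H1 (ν₁ * ν₂)
    have hw' := hw
    rw [map_mul] at hw
    refine ⟨w, ?_, ?_, hw'⟩
    · intro hw1
      have e1 := (hmem ν₁ w).mp hw1
      rw [e1] at hw
      exact hwZ (hint w hw1 ((hmem ν₂ w).mpr (mul_left_cancel hw)))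
    · intro hw2
      have e2 := (hmem ν₂ w).mp hw2
      rw [e2] at hw
      exact hwZ (hint w ((hmem ν₁ w).mpr (mul_right_cancel hw)) hw2)
  have hR : ∀ (α : Ω) (ν₀ ν : Ω), (∀ x, act x α = α) → α ^ p = 1 →
      (∀ x, ∃ m : ℕ, act x ν₀ = ν₀ * α ^ m) → (stab ν₀).index = p → (stab ν).index = p →
      stab ν ≠ stab ν₀ → ∀ x, ∃ k : ℕ, act x ν = ν * α ^ k := by
    intro α ν₀ ν hα hαp h0 hi0 hi hne
    obtain ⟨g, hg, hg0, hgfix⟩ := hP ν ν₀ hi hi0 hne
    obtain ⟨m, hm⟩ := h0 g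
    rw [map_mul, hm] at hgfix
    have hinvα : (α ^ m)⁻¹ = α ^ ((p - 1) * m) := by
      apply inv_eq_of_mul_eq_one_right
      rw [← pow_add]
      have e : m + (p - 1) * m = p * m := by
        obtain ⟨q, rfl⟩ : ∃ q, p = q + 1 := ⟨p - 1, by omega⟩
        rw [Nat.add_sub_cancel]; ring
      rw [e, pow_mul, hαp, one_pow]
    have h1 : act g ν = ν * (α ^ ((p - 1) * m)) := by
      rw [← hinvα]
      have h2 : act g ν * (ν₀ * α ^ m) = (ν * (α ^ m)⁻¹) * (ν₀ * α ^ m) := by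
        rw [hgfix, mul_mul_mul_comm, inv_mul_cancel, mul_one]
      exact mul_right_cancel h2
    have hβinv : ∀ x, act x (α ^ ((p - 1) * m)) = α ^ ((p - 1) * m) := by
      intro x; rw [map_pow, hα]
    obtain ⟨hβp, hall⟩ := hQ ν (α ^ ((p - 1) * m)) g hi hg h1 hβinv
    intro x
    obtain ⟨k, hk⟩ := hall x
    exact ⟨(p - 1) * m * k, by rw [hk, ← pow_mul]⟩
  -- the base pair
  have hZne : ∃ w₀, w₀ ∉ Z := by
    by_contra h
    push Not at h
    have hZtop : Z = ⊤ := by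
      ext x
      simp [h x]
    rw [hZtop, Subgroup.index_top] at hZidx
    have h1 : 1 < p ^ 2 := Nat.one_lt_pow (by norm_num) hp.one_lt
    omega
  obtain ⟨w₀, hw₀⟩ := hZne
  obtain ⟨ν₁, hν₁⟩ := H2 w₀ hw₀
  have hi1 : (stab ν₁).index = p :=
    (hidx ν₁).resolve_left (fun h => hν₁ ((hmem ν₁ w₀).mp (h ▸ Subgroup.mem_top w₀)))
  obtain ⟨w₁, hw₁Z, hw₁⟩ := H1 ν₁
  obtain ⟨ν₂, hν₂⟩ := H2 w₁ hw₁Z
  have hi2 : (stab ν₂).index = p :=
    (hidx ν₂).resolve_left (fun h => hν₂ ((hmem ν₂ w₁).mp (h ▸ Subgroup.mem_top w₁)))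
  have hne12 : stab ν₁ ≠ stab ν₂ := by
    intro h
    have h1 : w₁ ∈ stab ν₂ := h ▸ (hmem ν₁ w₁).mpr hw₁
    exact hν₂ ((hmem ν₂ w₁).mp h1)
  obtain ⟨g₀, hg1, hg2, hgfix⟩ := hP ν₁ ν₂ hi1 hi2 hne12
  obtain ⟨α, hαdef⟩ : ∃ α : Ω, α = act g₀ ν₁ * ν₁⁻¹ := ⟨_, rfl⟩
  have h1 : act g₀ ν₁ = ν₁ * α := by rw [hαdef, mul_comm ν₁, inv_mul_cancel_right]
  have h2 : act g₀ ν₂ = ν₂ * α⁻¹ := by
    rw [map_mul, h1] at hgfix
    have h3 : ν₁ * α * act g₀ ν₂ = ν₁ * α * (ν₂ * α⁻¹) := by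
      rw [hgfix, mul_mul_mul_comm, mul_inv_cancel, mul_one]
    exact mul_left_cancel h3
  have hα1 : ∀ t ∈ stab ν₁, act t α = α := by
    intro t ht
    rw [hαdef, map_mul, map_inv, hcomm t g₀ ν₁, (hmem ν₁ t).mp ht]
  have hα2 : ∀ t ∈ stab ν₂, act t α = α := by
    intro t ht
    have e : α = (act g₀ ν₂ * ν₂⁻¹)⁻¹ := by
      rw [h2, mul_comm ν₂, mul_inv_cancel_right, inv_inv]
    rw [e, map_inv, map_mul, map_inv, hcomm t g₀ ν₂, (hmem ν₂ t).mp ht]
  obtain ⟨-, hsup⟩ := hpair ν₁ ν₂ hi1 hi2 hne12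
  have hα : ∀ x, act x α = α := hinv_of α ν₁ ν₂ hsup hα1 hα2
  obtain ⟨hαp, hall1⟩ := hQ ν₁ α g₀ hi1 hg1 h1 hα
  have hαinv : ∀ x, act x α⁻¹ = α⁻¹ := fun x => by rw [map_inv, hα]
  obtain ⟨-, hall2'⟩ := hQ ν₂ α⁻¹ g₀ hi2 hg2 h2 hαinv
  have hinvα : α⁻¹ = α ^ (p - 1) := by
    apply inv_eq_of_mul_eq_one_right
    rw [← pow_succ', Nat.sub_add_cancel hp.pos, hαp]
  have hall2 : ∀ x, ∃ m : ℕ, act x ν₂ = ν₂ * α ^ m := by
    intro x
    obtain ⟨k, hk⟩ := hall2' x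
    exact ⟨(p - 1) * k, by rw [hk, hinvα, ← pow_mul]⟩
  refine ⟨α, hαp, ?_⟩
  intro g ν
  rcases hidx ν with htop | hi
  · exact ⟨0, by rw [pow_zero, mul_one]; exact (hmem ν g).mp (htop ▸ Subgroup.mem_top g)⟩
  · by_cases hc : stab ν = stab ν₁
    · exact hR α ν₂ ν hα hαp hall2 hi2 hi (by rw [hc]; exact hne12) g
    · exact hR α ν₁ ν hα hαp hall1 hi1 hi hc g

end Cfsg.Agent.Lib.Helper2
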